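import Mathlib
import Cfsg.Prelude.Def_FusionSystem

set_option autoImplicit false

namespace Cfsg.Agent.H85

open scoped IsMulCommutative in
/-- Averaging argument: an automorphism `ψ` of a finite group `G` that fixes a Sylow `p`-subgroup elementwise and
moves every element by an element of an abelian normal `p`-subgroup `A` is conjugation by an element of `A`. -/
theorem aut_eq_conj_of_sylow_fixed {G : Type*} [Group G] [Finite G] (p : ℕ) [Fact p.Prime] (T : Sylow p G)
    (A : Subgroup G) [hAn : A.Normal] (hAcomm : ∀ a ∈ A, ∀ b ∈ A, a * b = b * a) (hAp : IsPGroup p A)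
    (ψ : G ≃* G) (hψT : ∀ x ∈ (T : Subgroup G), ψ x = x) (hψA : ∀ g : G, ψ g * g⁻¹ ∈ A) :
    ∃ z ∈ A, ∀ g : G, ψ g = z * g * z⁻¹ := by
  classical
  haveI : IsMulCommutative ↥A := ⟨⟨fun a b => Subtype.ext (hAcomm a a.2 b b.2)⟩⟩
  cases nonempty_fintype (G ⧸ (T : Subgroup G))
  -- the cocycle
  let U : G → ↥A := fun g => ⟨ψ g * g⁻¹, hψA g⟩
  let cA : G → (↥A →* ↥A) := fun h => (MulAut.conjNormal h : MulAut ↥A).toMonoidHom
  have hcA : ∀ (h : G) (a : ↥A), ((cA h a : ↥A) : G) = h * a * h⁻¹ := fun h a => rfl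
  have hU_mul : ∀ h g : G, U (h * g) = U h * cA h (U g) := by
    intro h g
    apply Subtype.ext
    show ψ (h * g) * (h * g)⁻¹ = ψ h * h⁻¹ * (h * (ψ g * g⁻¹) * h⁻¹)
    rw [map_mul]; group
  have hU_T : ∀ (g s : G), s ∈ (T : Subgroup G) → U (g * s) = U g := by
    intro g s hs
    apply Subtype.ext
    show ψ (g * s) * (g * s)⁻¹ = ψ g * g⁻¹
    rw [map_mul, hψT s hs]; group
  let W : ↥A := ∏ q : G ⧸ (T : Subgroup G), U q.out
  have hkey : ∀ h : G, W = U h ^ (Fintype.card (G ⧸ (T : Subgroup G))) * cA h W := by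
    intro h
    have h1 : ∀ q : G ⧸ (T : Subgroup G), U ((h • q).out) = U h * cA h (U q.out) := by
      intro q
      rw [← hU_mul]
      have h2 : (QuotientGroup.mk (h * q.out) : G ⧸ (T : Subgroup G)) = QuotientGroup.mk ((h • q).out) := by
        rw [QuotientGroup.out_eq']
        conv_rhs => rw [← QuotientGroup.out_eq' q]
        rfl
      have h3 : (h * q.out)⁻¹ * (h • q).out ∈ (T : Subgroup G) := QuotientGroup.eq.mp h2
      have h4 := hU_T (h * q.out) _ h3
      rw [mul_inv_cancel_left] at h4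
      exact h4
    have h5 : W = ∏ q : G ⧸ (T : Subgroup G), U ((h • q).out) := by
      symm
      exact Fintype.prod_equiv (MulAction.toPerm h) _ _ (fun q => rfl)
    have h6 : ∏ q : G ⧸ (T : Subgroup G), U ((h • q).out) =
        U h ^ (Fintype.card (G ⧸ (T : Subgroup G))) * cA h W := by
      simp only [h1]
      rw [Finset.prod_mul_distrib, Finset.prod_const, Finset.card_univ, map_prod]
    rw [← h6]; exact h5
  -- coprimality
  have hcop : (Nat.card ↥A).Coprime (Fintype.card (G ⧸ (T : Subgroup G))) := by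
    obtain ⟨k, hk⟩ := IsPGroup.iff_card.mp hAp
    rw [hk]
    apply Nat.Coprime.pow_left
    rw [Nat.Prime.coprime_iff_not_dvd (Fact.out : p.Prime)]
    have := T.not_dvd_index
    rwa [Subgroup.index, Nat.card_eq_fintype_card] at this
  obtain ⟨Z, hZ⟩ := (powCoprime hcop).surjective W
  have hZ' : Z ^ (Fintype.card (G ⧸ (T : Subgroup G))) = W := hZ
  refine ⟨(Z : G), Z.2, fun g => ?_⟩
  have h6 := hkey g
  rw [← hZ', map_pow] at h6
  have h7 : (Z * (cA g Z)⁻¹) ^ (Fintype.card (G ⧸ (T : Subgroup G))) = U g ^ (Fintype.card (G ⧸ (T : Subgroup G))) := by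
    rw [mul_pow, inv_pow, h6, mul_inv_cancel_right]
  have h8 : Z * (cA g Z)⁻¹ = U g := (powCoprime hcop).injective h7
  have h9 : (Z : G) * (g * Z * g⁻¹)⁻¹ = ψ g * g⁻¹ := congrArg Subtype.val h8
  have h10 : ψ g = (Z : G) * (g * Z * g⁻¹)⁻¹ * g := by rw [h9]; group
  rw [h10]; group

end Cfsg.Agent.H85
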