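import Mathlib
import Cfsg.Prelude.Def_FusionSystem
import Cfsg.Agent.H85.Basic
import Cfsg.Agent.H85.Aut
import Cfsg.Agent.H85.GroupFS2
import Cfsg.Agent.H85.DihAut
import Cfsg.Agent.Lib.Helper87.FSSat

set_option autoImplicit false

namespace Cfsg.Agent.H85

open Cfsg Cfsg.FusionSystem

variable {Ω : Type*} [Group Ω] {S : Subgroup Ω}

/-- Over a dihedral or generalized quaternion group of order at least 16, `Aut_F(S) = Inn(S)` for saturated `F`. -/
theorem autGroup_eq_inn_of_dihedral_quaternion [Finite S] (n : ℕ) (hn : 4 ≤ n)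
    (hshape : Nonempty (S ≃* DihedralGroup (2 ^ (n - 1))) ∨
      Nonempty (S ≃* QuaternionGroup (2 ^ (n - 2))))
    (F : FusionSystem S) (hF : F.IsSaturated 2) : F.autGroup S = Inn S := by
  have hodd : ∀ (α : MulAut S) (N : ℕ), Odd N → α ^ N = 1 → α = 1 := by
    intro α N hN hα
    rcases hshape with ⟨⟨e⟩⟩ | ⟨⟨e⟩⟩
    · have h1 : (MulAut.congr e α) ^ N = 1 := by rw [← map_pow, hα, map_one]
      have h2 := dihedral_aut_eq_one_of_odd (n - 1) (by omega) _ N hN h1
      exact (MulAut.congr e).injective (by rw [h2, map_one])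
    · have h1 : (MulAut.congr e α) ^ N = 1 := by rw [← map_pow, hα, map_one]
      have h2 := quaternion_aut_eq_one_of_odd (n - 2) (by omega) _ N hN h1
      exact (MulAut.congr e).injective (by rw [h2, map_one])
  haveI : Fact (Nat.Prime 2) := ⟨Nat.prime_two⟩
  obtain ⟨-, R, hR⟩ := (Lib.Helper87.FSSat.far_top F hF).1
  have hp : IsPGroup 2 (F.autGroup S) := by
    intro β
    have ho : orderOf β ≠ 0 := (orderOf_pos β).ne'
    obtain ⟨a, m, hm, hom⟩ := Nat.exists_eq_pow_mul_and_not_dvd ho 2 (by norm_num)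
    refine ⟨a, ?_⟩
    have hmodd : Odd m := Nat.odd_iff.mpr (by omega)
    have h1 : ((β : MulAut S) ^ (2 ^ a)) ^ m = 1 := by
      rw [← pow_mul, ← hom, ← Subgroup.coe_pow, pow_orderOf_eq_one]
      rfl
    have h2 := hodd _ m hmodd h1
    apply Subtype.ext
    rw [Subgroup.coe_pow]; exact h2
  have htop : (⊤ : Subgroup (F.autGroup S)) = R := R.3 (hp.to_subgroup ⊤) le_top
  rw [hR] at htop
  have hle : F.autGroup S ≤ autInducedBy S S := Subgroup.subgroupOf_eq_top.mp htop.symm
  ext α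
  constructor
  · intro hα
    obtain ⟨s, hs, hsα⟩ := (mem_autInducedBy_iff S S α).mp (hle hα)
    refine ⟨⟨s, hs⟩, ?_⟩
    ext x
    exact (hsα x).symm
  · rintro ⟨s, rfl⟩
    exact (mem_autGroup_iff F le_rfl _).mpr (hom_congr F (F.conj_mem le_rfl s.2) (fun x => rfl))

end Cfsg.Agent.H85
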